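import Cfsg.Agent.Lib.Helper99.C64.Defs
import Cfsg.Agent.Lib.Helper40.Semisimple

set_option autoImplicit false

namespace Cfsg.Agent.Lib.Helper83.C64

open Cfsg.Agent.Lib.Helper99.C64

universe u

variable {F : Type u} [Field F]

/-- the matrix whose columns are the linearly independent vectors `b j` conjugates `X` to `N` when
`X (b j) = ∑ k, N k j • b k` -/
theorem frame4 (X N : M4 F) (b : Fin 4 → Fin 4 → F) (hli : LinearIndependent F b)
    (h : ∀ j, X.mulVec (b j) = ∑ k, N k j • b k) : ∃ u : M4 F, IsUnit u ∧ X * u = u * N := by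
  obtain ⟨g, hg⟩ : ∃ g : M4 F, g = Matrix.of (fun i j => b j i) := ⟨_, rfl⟩
  have hunit : IsUnit g := by
    rw [← Matrix.linearIndependent_cols_iff_isUnit]
    have : g.col = b := by
      funext j i
      rw [hg]
      rfl
    rw [this]
    exact hli
  refine ⟨g, hunit, ?_⟩
  ext i j
  have h1 : (X * g) i j = (X.mulVec (b j)) i := by rw [hg]; rfl
  have h2 : ∀ k, g i k = b k i := by intro k; rw [hg]; rfl
  rw [h1, h j, Matrix.mul_apply, Finset.sum_apply]
  apply Finset.sum_congr rfl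
  intro k _
  rw [Pi.smul_apply, smul_eq_mul, h2, mul_comm]

theorem det_eq_one_of_mem_SL4 (x : GL (Fin 4) F) (hx : x ∈ SL4 F) : (x : M4 F).det = 1 := by
  have h : Matrix.GeneralLinearGroup.det x = 1 := MonoidHom.mem_ker.mp hx
  have h' := congrArg Units.val h
  rw [Matrix.GeneralLinearGroup.val_det_apply, Units.val_one] at h'
  exact h'

/-- A `GL_4`-conjugacy `x u = u M` of an element `x ∈ SL_4` of order prime to the characteristic
can be replaced by an `SL_4`-conjugacy. -/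
theorem sl_conj_of_gl_conj [Fintype F] (x : GL (Fin 4) F) (hx : x ∈ SL4 F) (M : M4 F) (k : ℕ)
    (hk : (k : F) ≠ 0) (hxk : (x : M4 F) ^ k = 1) (u : M4 F) (hu : IsUnit u)
    (hxu : (x : M4 F) * u = u * M) :
    ∃ g ∈ SL4 F, ((g⁻¹ * x * g : GL (Fin 4) F) : M4 F) = M := by
  obtain ⟨ui, hui1, hui2⟩ : ∃ ui : M4 F, u * ui = 1 ∧ ui * u = 1 := by
    obtain ⟨U, hU⟩ := hu
    exact ⟨U.inv, by rw [← hU]; exact U.val_inv, by rw [← hU]; exact U.inv_val⟩
  have hM : M = ui * ((x : M4 F) * u) := by rw [hxu, ← mul_assoc, hui2, one_mul]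
  have hdetx : (x : M4 F).det = 1 := det_eq_one_of_mem_SL4 x hx
  have hdetM : M.det = 1 := by
    have h1 : u.det * ui.det = 1 := by rw [← Matrix.det_mul, hui1, Matrix.det_one]
    rw [hM, Matrix.det_mul, Matrix.det_mul, hdetx, one_mul, mul_comm, h1]
  have hMn : ∀ n : ℕ, M ^ n = ui * ((x : M4 F) ^ n * u) := by
    intro n
    induction n with
    | zero => rw [pow_zero, pow_zero, one_mul, hui2]
    | succ n ih =>
      rw [pow_succ, ih, pow_succ, hM]
      simp only [mul_assoc]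
      rw [← mul_assoc u ui, hui1, one_mul]
  have hMk : M ^ k = 1 := by rw [hMn, hxk, one_mul, hui2]
  have hchar : (x : M4 F).charpoly = M.charpoly := by
    rw [hM, Matrix.charpoly_mul_comm, mul_assoc, hui1, mul_one]
  obtain ⟨X', hX'⟩ : ∃ X' : Matrix.SpecialLinearGroup (Fin 4) F, (X' : M4 F) = (x : M4 F) :=
    ⟨⟨_, hdetx⟩, rfl⟩
  obtain ⟨M', hM'⟩ : ∃ M' : Matrix.SpecialLinearGroup (Fin 4) F, (M' : M4 F) = M :=
    ⟨⟨_, hdetM⟩, rfl⟩
  obtain ⟨c, hc⟩ := isConj_iff.mp (Cfsg.Agent.Lib.Helper40.isConj_SL_of_semisimple X' M'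
    (by rw [hX']; exact Cfsg.Agent.Lib.Helper40.isSemisimple_of_pow_eq_one _ k hk hxk)
    (by rw [hM']; exact Cfsg.Agent.Lib.Helper40.isSemisimple_of_pow_eq_one _ k hk hMk)
    (by rw [hX', hM']; exact hchar))
  have hc' : (c : M4 F) * (x : M4 F) * ((c⁻¹ : Matrix.SpecialLinearGroup (Fin 4) F) : M4 F) = M := by
    have h : ((c * X' * c⁻¹ : Matrix.SpecialLinearGroup (Fin 4) F) : M4 F) = M := by
      rw [hc, hM']
    rw [Matrix.SpecialLinearGroup.coe_mul, Matrix.SpecialLinearGroup.coe_mul, hX'] at h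
    exact h
  refine ⟨(Matrix.SpecialLinearGroup.toGL c)⁻¹, ?_, ?_⟩
  · show (Matrix.SpecialLinearGroup.toGL c)⁻¹ ∈
      (Matrix.GeneralLinearGroup.det : GL (Fin 4) F →* Fˣ).ker
    rw [MonoidHom.mem_ker, ← map_inv]
    apply Units.ext
    rw [Matrix.GeneralLinearGroup.val_det_apply, Matrix.SpecialLinearGroup.coe_GL_coe_matrix,
      Units.val_one]
    exact (c⁻¹).2
  · rw [inv_inv, Units.val_mul, Units.val_mul, ← map_inv,
      Matrix.SpecialLinearGroup.coe_GL_coe_matrix, Matrix.SpecialLinearGroup.coe_GL_coe_matrix]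
    exact hc'

end Cfsg.Agent.Lib.Helper83.C64
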