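import Cfsg.Agent.Lib.Helper83.C64.Frame4

set_option autoImplicit false

namespace Cfsg.Agent.Lib.Helper83.C64

open Cfsg.Agent.Lib.Helper99.C64

universe u

section

variable {F : Type u} [Field F]

/-- extend a linearly independent family by an eigenvector of an involution -/
theorem invol_extend (h2 : (2 : F) ≠ 0) (X : M4 F) (hXX : ∀ v, X.mulVec (X.mulVec v) = v)
    {n : ℕ} (hn : n < 4) (b : Fin n → Fin 4 → F) (hb : LinearIndependent F b) :
    ∃ (w : Fin 4 → F) (ε : F), (ε = 1 ∨ ε = -1) ∧ X.mulVec w = ε • w ∧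
      LinearIndependent F (Fin.snoc b w : Fin (n + 1) → Fin 4 → F) := by
  obtain ⟨t, ht⟩ := exists_linearIndependent_snoc_of_lt_finrank hb
    (by rw [Module.finrank_fin_fun]; exact hn)
  have htn : t ∉ Submodule.span F (Set.range b) := (linearIndependent_fin_snoc.mp ht).2
  by_cases h1 : t + X.mulVec t ∈ Submodule.span F (Set.range b)
  · by_cases h2' : t - X.mulVec t ∈ Submodule.span F (Set.range b)
    · exfalso
      apply htn
      have e : t = (2 : F)⁻¹ • ((t + X.mulVec t) + (t - X.mulVec t)) := by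
        rw [add_add_sub_cancel, ← two_smul F t, smul_smul, inv_mul_cancel₀ h2, one_smul]
      rw [e]
      exact Submodule.smul_mem _ _ (Submodule.add_mem _ h1 h2')
    · refine ⟨t - X.mulVec t, -1, Or.inr rfl, ?_, linearIndependent_fin_snoc.mpr ⟨hb, h2'⟩⟩
      rw [Matrix.mulVec_sub, hXX, neg_one_smul, neg_sub]
  · refine ⟨t + X.mulVec t, 1, Or.inl rfl, ?_, linearIndependent_fin_snoc.mpr ⟨hb, h1⟩⟩
    rw [Matrix.mulVec_add, hXX, one_smul, add_comm]

theorem d1_eq_diagonal : d1 F = Matrix.diagonal ![1, 1, 1, -1] := by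
  ext i j; fin_cases i <;> fin_cases j <;> simp [d1]

theorem mZa_eq_diagonal : mZa F = Matrix.diagonal ![1, 1, -1, -1] := by
  ext i j; fin_cases i <;> fin_cases j <;> simp [mZa]

theorem d3_eq_diagonal : d3 F = Matrix.diagonal ![1, -1, -1, -1] := by
  ext i j; fin_cases i <;> fin_cases j <;> simp [d3]

/-- A non-scalar involution of `F^4` is conjugate to `d1`, `mZa` or `d3`. -/
theorem invol_frame4 (h2 : (2 : F) ≠ 0) (X : M4 F) (hX2 : X * X = 1)
    (hns : ∀ c : F, X ≠ c • (1 : M4 F)) :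
    ∃ u : M4 F, IsUnit u ∧ (X * u = u * d1 F ∨ X * u = u * mZa F ∨ X * u = u * d3 F) := by
  have hXX : ∀ v, X.mulVec (X.mulVec v) = v := by
    intro v; rw [Matrix.mulVec_mulVec, hX2, Matrix.one_mulVec]
  obtain ⟨w, hw⟩ : ∃ w, X.mulVec w ≠ w := by
    by_contra h
    push Not at h
    apply hns 1
    rw [one_smul]
    apply Matrix.mulVec_injective
    funext x
    rw [Matrix.one_mulVec]; exact h x
  obtain ⟨w', hw'⟩ : ∃ w, X.mulVec w ≠ -w := by
    by_contra h
    push Not at h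
    apply hns (-1)
    apply Matrix.mulVec_injective
    funext x
    rw [h x, Matrix.smul_mulVec, Matrix.one_mulVec, neg_one_smul]
  obtain ⟨vm, hvm⟩ : ∃ vm, vm = X.mulVec w - w := ⟨_, rfl⟩
  obtain ⟨vp, hvp⟩ : ∃ vp, vp = X.mulVec w' + w' := ⟨_, rfl⟩
  have hvm0 : vm ≠ 0 := by rw [hvm]; exact sub_ne_zero.mpr hw
  have hvp0 : vp ≠ 0 := by
    rw [hvp]; intro h; exact hw' (eq_neg_of_add_eq_zero_left h)
  have hXvm : X.mulVec vm = -vm := by rw [hvm, Matrix.mulVec_sub, hXX]; abel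
  have hXvp : X.mulVec vp = vp := by rw [hvp, Matrix.mulVec_add, hXX]; abel
  have h11 : (1 : F) ≠ -1 := by
    intro h; apply h2; linear_combination h
  have hli2 : LinearIndependent F ![vp, vm] := by
    have hinj : Function.Injective (![1, -1] : Fin 2 → F) := by
      intro i j hij
      fin_cases i <;> fin_cases j <;>
        first
        | rfl
        | exact (h11 hij).elim
        | exact (h11 hij.symm).elim
    refine Module.End.eigenvectors_linearIndependent' X.mulVecLin ![1, -1] hinj _ ?_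
    intro i
    rw [Module.End.hasEigenvector_iff, Module.End.mem_eigenspace_iff]
    fin_cases i
    · exact ⟨by simpa using hXvp, by simpa using hvp0⟩
    · exact ⟨by simpa using hXvm, by simpa using hvm0⟩
  obtain ⟨w1, ε1, hε1, hw1, hli3⟩ := invol_extend h2 X hXX (by norm_num) ![vp, vm] hli2
  obtain ⟨w2, ε2, hε2, hw2, hli4⟩ := invol_extend h2 X hXX (by norm_num) _ hli3
  have hb : (Fin.snoc (Fin.snoc ![vp, vm] w1) w2 : Fin 4 → Fin 4 → F) = ![vp, vm, w1, w2] := by
    funext i; fin_cases i <;> rfl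
  rw [hb] at hli4
  have key : ∀ (σ : Fin 4 → Fin 4) (_ : Function.Injective σ) (d : Fin 4 → F),
      (∀ j, X.mulVec (![vp, vm, w1, w2] (σ j)) = d j • ![vp, vm, w1, w2] (σ j)) →
      ∃ u : M4 F, IsUnit u ∧ X * u = u * Matrix.diagonal d := by
    intro σ hσ d hd
    apply frame4 X (Matrix.diagonal d) (![vp, vm, w1, w2] ∘ σ) (hli4.comp σ hσ)
    intro j
    rw [Function.comp_apply, hd j, Finset.sum_eq_single j]
    · rw [Matrix.diagonal_apply_eq, Function.comp_apply]
    · intro k _ hkj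
      rw [Matrix.diagonal_apply_ne _ hkj, zero_smul]
    · intro h; exact absurd (Finset.mem_univ j) h
  rcases hε1 with h1 | h1 <;> rcases hε2 with h2' | h2'
  · rw [h1, one_smul] at hw1
    rw [h2', one_smul] at hw2
    obtain ⟨u, hu, hXu⟩ := key ![0, 2, 3, 1] (by decide) ![1, 1, 1, -1]
      (by intro j; fin_cases j <;> simp [hXvp, hXvm, hw1, hw2])
    exact ⟨u, hu, Or.inl (by rw [d1_eq_diagonal]; exact hXu)⟩
  · rw [h1, one_smul] at hw1
    rw [h2', neg_one_smul] at hw2
    obtain ⟨u, hu, hXu⟩ := key ![0, 2, 1, 3] (by decide) ![1, 1, -1, -1]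
      (by intro j; fin_cases j <;> simp [hXvp, hXvm, hw1, hw2])
    exact ⟨u, hu, Or.inr (Or.inl (by rw [mZa_eq_diagonal]; exact hXu))⟩
  · rw [h1, neg_one_smul] at hw1
    rw [h2', one_smul] at hw2
    obtain ⟨u, hu, hXu⟩ := key ![0, 3, 1, 2] (by decide) ![1, 1, -1, -1]
      (by intro j; fin_cases j <;> simp [hXvp, hXvm, hw1, hw2])
    exact ⟨u, hu, Or.inr (Or.inl (by rw [mZa_eq_diagonal]; exact hXu))⟩
  · rw [h1, neg_one_smul] at hw1
    rw [h2', neg_one_smul] at hw2
    obtain ⟨u, hu, hXu⟩ := key ![0, 1, 2, 3] (by decide) ![1, -1, -1, -1]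
      (by intro j; fin_cases j <;> simp [hXvp, hXvm, hw1, hw2])
    exact ⟨u, hu, Or.inr (Or.inr (by rw [d3_eq_diagonal]; exact hXu))⟩

/-- If `X * X = z • 1` on `F^4` and `z` is not a square then `z * z = X.det`. -/
theorem det_of_sq_nonsquare (X : M4 F) (z : F) (hX2 : X * X = z • (1 : M4 F))
    (hns : ∀ c : F, c * c ≠ z) : X.det = z * z := by
  have hXv : ∀ v, X.mulVec (X.mulVec v) = z • v := by
    intro v; rw [Matrix.mulVec_mulVec, hX2, Matrix.smul_mulVec, Matrix.one_mulVec]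
  have noeig : ∀ (v : Fin 4 → F) (l : F), v ≠ 0 → X.mulVec v ≠ l • v := by
    intro v l hv h
    have h1 := hXv v
    rw [h, Matrix.mulVec_smul, h, smul_smul] at h1
    have h2 : (l * l - z) • v = 0 := by rw [sub_smul, h1, sub_self]
    rcases smul_eq_zero.mp h2 with h3 | h3
    · exact hns l (sub_eq_zero.mp h3)
    · exact hv h3
  obtain ⟨v, hv⟩ : ∃ v : Fin 4 → F, v ≠ 0 :=
    ⟨Pi.single 0 1, by intro h; have := congrFun h 0; simp at this⟩
  have hli2 : LinearIndependent F ![v, X.mulVec v] := by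
    rw [LinearIndependent.pair_iff]
    intro s t hst
    by_cases ht : t = 0
    · rw [ht, zero_smul, add_zero] at hst
      rcases smul_eq_zero.mp hst with h | h
      · exact ⟨h, ht⟩
      · exact (hv h).elim
    · exfalso
      apply noeig v (-(t⁻¹ * s)) hv
      have h1 : t • X.mulVec v = -(s • v) := eq_neg_of_add_eq_zero_right hst
      have h2 : X.mulVec v = t⁻¹ • (t • X.mulVec v) := by
        rw [smul_smul, inv_mul_cancel₀ ht, one_smul]
      rw [h2, h1, smul_neg, smul_smul, neg_smul]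
  obtain ⟨w, hw3⟩ := exists_linearIndependent_snoc_of_lt_finrank hli2
    (by rw [Module.finrank_fin_fun]; norm_num)
  have hwn : w ∉ Submodule.span F (Set.range ![v, X.mulVec v]) :=
    (linearIndependent_fin_snoc.mp hw3).2
  have e3 : (Fin.snoc ![v, X.mulVec v] w : Fin 3 → Fin 4 → F) = ![v, X.mulVec v, w] := by
    funext i; fin_cases i <;> rfl
  rw [e3] at hw3
  have hXw : X.mulVec w ∉ Submodule.span F (Set.range ![v, X.mulVec v, w]) := by
    intro hmem
    obtain ⟨c, hc⟩ := (Submodule.mem_span_range_iff_exists_fun F).mp hmem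
    rw [Fin.sum_univ_three] at hc
    have hc' : c 0 • v + c 1 • X.mulVec v + c 2 • w = X.mulVec w := hc
    apply hwn
    have h1 := hXv w
    rw [← hc', Matrix.mulVec_add, Matrix.mulVec_add, Matrix.mulVec_smul, Matrix.mulVec_smul,
      Matrix.mulVec_smul, hXv v, ← hc'] at h1
    have h2 : (z - c 2 * c 2) • w =
        (c 1 * z + c 2 * c 0) • v + (c 0 + c 2 * c 1) • X.mulVec v := by
      linear_combination (norm := module) -h1
    have h3 : z - c 2 * c 2 ≠ 0 := fun h => hns (c 2) (sub_eq_zero.mp h).symm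
    have h4 : w = (z - c 2 * c 2)⁻¹ • ((z - c 2 * c 2) • w) := by
      rw [smul_smul, inv_mul_cancel₀ h3, one_smul]
    rw [h4, h2]
    apply Submodule.smul_mem
    apply Submodule.add_mem
    · exact Submodule.smul_mem _ _ (Submodule.subset_span ⟨0, rfl⟩)
    · exact Submodule.smul_mem _ _ (Submodule.subset_span ⟨1, rfl⟩)
  have hli4 := linearIndependent_fin_snoc.mpr ⟨hw3, hXw⟩
  have e4 : (Fin.snoc ![v, X.mulVec v, w] (X.mulVec w) : Fin 4 → Fin 4 → F) =
      ![v, X.mulVec v, w, X.mulVec w] := by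
    funext i; fin_cases i <;> rfl
  rw [e4] at hli4
  obtain ⟨N, hN⟩ : ∃ N : M4 F, N = !![0, z, 0, 0; 1, 0, 0, 0; 0, 0, 0, z; 0, 0, 1, 0] := ⟨_, rfl⟩
  obtain ⟨u, hu, hXu⟩ := frame4 X N ![v, X.mulVec v, w, X.mulVec w] hli4 (by
    intro j
    rw [Fin.sum_univ_four, hN]
    fin_cases j <;> simp [hXv])
  have hdu : u.det ≠ 0 := ((Matrix.isUnit_iff_isUnit_det _).mp hu).ne_zero
  have hdetN : N.det = z * z := by
    rw [hN, Matrix.det_succ_row_zero]
    simp [Fin.sum_univ_succ, Matrix.det_fin_three, Fin.succAbove, Matrix.submatrix]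
  have h := congrArg Matrix.det hXu
  rw [Matrix.det_mul, Matrix.det_mul, hdetN, mul_comm] at h
  exact mul_left_cancel₀ hdu h

end

theorem pkgPos2_of (hN : PkgND.{u}) : PkgPos2.{u} := by
  intro F _ _ p _ _ hF hp4 ι hι x hx hx2 hxns
  obtain ⟨z, hz⟩ := hx2
  have hpP : p.Prime := Fact.out
  have h2 : (2 : F) ≠ 0 := by
    intro h
    have h' : ((2 : ℕ) : F) = 0 := by exact_mod_cast h
    rw [CharP.cast_eq_zero_iff F p 2] at h'
    have h3 := Nat.le_of_dvd (by norm_num) h'
    have h4 := hpP.two_le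
    omega
  have hdet := det_eq_one_of_mem_SL4 x hx
  have hXX : (x : M4 F) * (x : M4 F) = z • (1 : M4 F) := by rw [← hz, pow_two, Units.val_mul]
  have hz4 : z ^ 4 = 1 := by
    have h := congrArg Matrix.det hXX
    rw [Matrix.det_mul, hdet, Matrix.det_smul, Matrix.det_one, Fintype.card_fin, mul_one,
      mul_one] at h
    exact h.symm
  have hx8 : (x : M4 F) ^ 8 = 1 := by
    have e : (x : M4 F) ^ 8 = ((x : M4 F) * (x : M4 F)) ^ 4 := by rw [← pow_two, ← pow_mul]
    rw [e, hXX, smul_pow, one_pow, hz4, one_smul]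
  have h8 : ((8 : ℕ) : F) ≠ 0 := by
    have e : ((8 : ℕ) : F) = 2 * 2 * 2 := by norm_num
    rw [e]; exact mul_ne_zero (mul_ne_zero h2 h2) h2
  obtain ⟨c, hc⟩ : ∃ c : F, c * c = z := by
    by_contra hns
    push Not at hns
    have hd := det_of_sq_nonsquare (x : M4 F) z hXX hns
    rw [hdet] at hd
    have h5 : (z - 1) * (z + 1) = 0 := by linear_combination -hd
    rcases mul_eq_zero.mp h5 with h6 | h6
    · exact hns 1 (by rw [one_mul]; exact (sub_eq_zero.mp h6).symm)
    · exact hns ι (by rw [← pow_two, hι]; exact (eq_neg_of_add_eq_zero_left h6).symm)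
  have hc0 : c ≠ 0 := by
    rintro rfl
    rw [mul_zero] at hc
    rw [← hc] at hz4
    norm_num at hz4
  obtain ⟨u, hu, hcases⟩ := invol_frame4 h2 (c⁻¹ • (x : M4 F))
    (by
      rw [Matrix.smul_mul, Matrix.mul_smul, hXX, smul_smul, smul_smul, ← hc]
      have e : c⁻¹ * c⁻¹ * (c * c) = 1 := by field_simp
      rw [e, one_smul])
    (by
      intro a ha
      apply hxns
      refine ⟨c * a, ?_⟩
      have h := congrArg (fun M : M4 F => c • M) ha
      simp only [smul_smul] at h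
      rw [mul_inv_cancel₀ hc0, one_smul] at h
      exact h)
  have key : ∀ D : M4 F, c⁻¹ • (x : M4 F) * u = u * D →
      ∃ g ∈ SL4 F, ((g⁻¹ * x * g : GL (Fin 4) F) : M4 F) = c • D := by
    intro D hD
    apply sl_conj_of_gl_conj x hx (c • D) 8 h8 hx8 u hu
    rw [Matrix.mul_smul, ← hD, Matrix.smul_mul, smul_smul, mul_inv_cancel₀ hc0, one_smul]
  rcases hcases with h | h | h
  · obtain ⟨g, hg, hgM⟩ := key _ h
    exact ⟨g, hg, hN F h2 ι hι _ c (Or.inl hgM)⟩
  · obtain ⟨g, hg, hgM⟩ := key _ h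
    exact ⟨g, hg, hN F h2 ι hι _ c (Or.inr (Or.inl hgM))⟩
  · obtain ⟨g, hg, hgM⟩ := key _ h
    exact ⟨g, hg, hN F h2 ι hι _ c (Or.inr (Or.inr hgM))⟩

end Cfsg.Agent.Lib.Helper83.C64
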